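import Mathlib
import Cfsg.Agent.GH.Defs

/-!
Sectional 2-rank at most four: the configurations of the later sections. See `stubs/Cfsg/Agent/GH/PLAN.md`.
-/

set_option autoImplicit false
set_option linter.unusedSectionVars false

namespace Cfsg.Agent.GH

open Cfsg.Agent.Inv.Fz Cfsg.Agent.NE Subgroup
open scoped commutatorElement

variable {G : Type*} [Group G]

/-- `Θ` contains the good support `⟨z, b⟩` or `⟨j, b⟩`. -/
def Gd (S Θ : Subgroup G) (a b : G) (n : ℕ) : Prop :=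
  ∃ R x s, TD S R x s Θ a b n ∨ TQ S R x s Θ a b n

/-- The configuration `Y×`. -/
structure YC (S Θ : Subgroup G) (a b : G) (n : ℕ) (y : G) : Prop where
  gd : Gd S Θ a b n
  two : 2 ≤ n
  yx : YX S Θ a b y

/-- The support `V = ⟨j j' ^ ε, g⟩` of type `∘` in the configuration `Y×`; `g` swaps the two factors. -/
structure YV (S V Θ : Subgroup G) (a : G) (n : ℕ) (y g : G) : Prop where
  ex : ∃ R x s Θ₀ a₀ n₀ y₀, TQ S R x s Θ₀ a₀ g n₀ ∧ YO S Θ₀ a₀ g n₀ y₀ ∧ V = supp R x ∧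
    zz a₀ n₀ = zz a n * (y * zz a n * y⁻¹) ∧
    (zpowers (jj a₀ n₀) = zpowers (jj a n * (y * jj a n * y⁻¹)) ∨
      zpowers (jj a₀ n₀) = zpowers (jj a n * (y * jj a n * y⁻¹)⁻¹))
  mem : g ∈ S
  swap : g ∉ normalizer (Θ : Set G)
  sq : g * zz a n * (g * zz a n) = 1

/-- The support `V` of type `×` in the configuration `Y×`, with the centre of `Θ`. -/
def YW (S V : Subgroup G) (a : G) (n : ℕ) : Prop :=
  ∃ Θ₀ a₀ b₀ n₀ y₀, YC S Θ₀ a₀ b₀ n₀ y₀ ∧ zz a₀ n₀ = zz a n ∧ V ≤ Θ₀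

/-- All good supports are of type X. -/
def Ctx.AllX (c : Ctx G) : Prop := ∀ R x s, T2 c.S R x s →
  (El 4 (supp R x) → ∃ Θ a b n, TD c.S R x s Θ a b n ∧ XT c.S Θ a b) ∧
  (Q8 (supp R x) → ∃ Θ a b n, TQ c.S R x s Θ a b n ∧ XT c.S Θ a b)

/-- A dihedral group (or four-group) of type X. -/
structure XD (S R : Subgroup G) (x s : G) (Θ : Subgroup G) (a b : G) (n : ℕ) : Prop where
  td : TD S R x s Θ a b n
  xt : XT S Θ a b

/-- Two groups of type X that generate a dihedral or semidihedral group `Θ Θ'`. -/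
structure XH (S R : Subgroup G) (x s : G) (Θ : Subgroup G) (a b : G) (n : ℕ) (Θ' : Subgroup G) (a' b' : G) : Prop
    extends XD S R x s Θ a b n where
  gd : Gd S Θ' a' b' n
  xt' : XT S Θ' a' b'
  eq : zpowers a' = zpowers a
  swap : ⁅b', b⁆ ∉ phi Θ

/-- The hypotheses of the lemma on a normal cyclic subgroup `⟨a⟩` whose involution is moved by `x`. -/
structure XA (S R : Subgroup G) (x s a b : G) (n : ℕ) : Prop where
  loc : Loc S R x s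
  two : 2 ≤ n
  ord : orderOf a = 2 ^ n
  a_mem : a ∈ R
  na : S ≤ normalizer (zpowers a : Set G)
  b_mem : b ∈ S
  b_not : b ∉ R
  comm : ∀ y ∈ S, ⁅y, b⁆ ∈ zpowers a
  inv : b * a * b⁻¹ = a⁻¹
  sq : b * b = 1 ∨ b * b = zz a n
  move : x * zz a n ≠ zz a n * x

/-- The unique subgroup `R₁ = C_S(U)`, `U = ⟨z, u⟩`, whose triples move the centre. -/
structure EC (S R₁ : Subgroup G) (ρ s₁ z u : G) : Prop where
  bas : Bas S R₁ ρ s₁
  ix : Ix S R₁ s₁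
  cube : Cz (ρ ^ 3) R₁
  el : El 4 (closure {z, u})
  z_mem : z ∈ R₁
  u_mem : u ∈ R₁
  z_ne : z ≠ 1
  cz : Cz z S
  su : s₁ * u * s₁⁻¹ = u * z
  rz : ρ * z * ρ⁻¹ = u
  ru : ρ * u * ρ⁻¹ = u * z
  mem : ∀ y ∈ S, y ∈ R₁ ↔ y * u = u * y
  om : ∀ w ∈ R₁, w * w = 1 → Cz w R₁ → w ∈ closure {z, u}
  uniq : ∀ R x s, Bas S R x s → R = R₁ ∨ x * z = z * x
  norm : normalizer (S : Set G) ≤ normalizer (R₁ : Set G)

/-- A second triple that fixes `z` and moves `U`. -/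
structure EH (S R₁ : Subgroup G) (ρ s₁ z u : G) (R₂ : Subgroup G) (x s₂ : G) : Prop extends EC S R₁ ρ s₁ z u where
  bas₂ : Bas S R₂ x s₂
  ix₂ : Ix S R₂ s₂
  xz : x * z = z * x
  u_mem₂ : u ∈ R₂
  move : x * u * x⁻¹ ∉ closure {z, u}

/-- The conjugates of `U` under `x` generate `F = ⟨z, u, f⟩` of order eight. -/
structure EF (S R₁ : Subgroup G) (ρ s₁ z u : G) (R₂ : Subgroup G) (x s₂ f : G) (F : Subgroup G) : Prop
    extends EH S R₁ ρ s₁ z u R₂ x s₂ where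
  f_eq : f = x * u * x⁻¹
  F_eq : F = closure {z, u, f}
  elF : El 8 F
  F_le : F ≤ R₁ ⊓ R₂
  nF : S ≤ normalizer (F : Set G)
  xF : x ∈ normalizer (F : Set G)
  cube₂ : Cz (x ^ 3) R₂
  mem₂ : ∀ y ∈ S, y ∈ R₂ ↔ ∀ v ∈ F, ⁅y, v⁆ ∈ zpowers z
  card : Nat.card S = 8 * Nat.card (S ⊓ centralizer (F : Set G) : Subgroup G)
  onto : ∀ v ∈ closure {z, u}, ∃ r ∈ R₁, ⁅r, f⁆ = v
  commf : ∀ r ∈ R₁, ⁅r, f⁆ ∈ closure {z, u}
  fpf : ∀ r ∈ R₂, Cz ⁅x, r⁆ F → Cz r F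

/-- `R₁ = 4² ⋊ 2²`, the four-group acting by the scalars `1 + 2 y`. -/
structure T128 (R₁ : Subgroup G) (ρ a : G) : Prop where
  hom : Hom (supp R₁ ρ) ρ a 2
  el : El 4 (fix R₁ ρ)
  faith : ∀ d ∈ fix R₁ ρ, Cz d (supp R₁ ρ) → d = 1

end Cfsg.Agent.GH
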