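import Mathlib
import Cfsg.Agent.GH.Defs3
import Cfsg.Agent.GH.Basic

/-! Computations in dihedral and quaternion groups. See `stubs/Cfsg/Agent/GH/PLAN2.md`. -/

set_option autoImplicit false
set_option linter.unusedSectionVars false

namespace Cfsg.Agent.GH

open Cfsg.Agent.Inv.Fz Cfsg.Agent.NE Subgroup
open scoped commutatorElement

variable {G : Type*} [Group G] [Finite G] {S R K N Θ Θ' H : Subgroup G} {x s g v a b a' b' y : G} {n n' : ℕ}

theorem act_odd (ho : orderOf a = 2 ^ n) (hg : g ∈ normalizer (zpowers a : Set G)) :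
    ∃ u : ℕ, Odd u ∧ g * a * g⁻¹ = a ^ u := by
  obtain ⟨u, hu⟩ := mem_powers_iff_mem_zpowers.2 ((conj_mem_norm hg).2 (mem_zpowers a))
  dsimp only at hu
  rcases n with _ | n
  · obtain rfl : a = 1 := orderOf_eq_one_iff.1 ho
    exact ⟨1, odd_one, by simp⟩
  refine ⟨u, Nat.not_even_iff_odd.1 ?_, hu.symm⟩
  rintro ⟨k, rfl⟩
  have e : (g * a * g⁻¹) ^ 2 ^ n = 1 := by
    rw [← hu, ← pow_mul, ← two_mul, mul_right_comm, ← pow_succ', pow_mul, ← ho, pow_orderOf_eq_one, one_pow]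
  have := Nat.le_of_dvd (by positivity) (orderOf_dvd_of_pow_eq_one e)
  rw [BsA.ord_cj, ho, pow_succ] at this
  have : 0 < 2 ^ n := by positivity
  omega

theorem mem_cls (hg : g ∈ normalizer (Θ : Set G)) : g ∈ cls Θ b ↔ ⁅g, b⁆ ∈ phi Θ := by
  refine ⟨fun h => (mem_set_normalizer_iff.1 h b).1 (by simp), fun h => mem_set_normalizer_iff.2 fun w => ?_⟩
  change w * b⁻¹ ∈ phi Θ ↔ g * w * g⁻¹ * b⁻¹ ∈ phi Θ
  rw [show g * w * g⁻¹ * b⁻¹ = g * (w * b⁻¹) * g⁻¹ * ⁅g, b⁆ by rw [commutatorElement_def]; group,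
    mul_mem_cancel_right h, conj_mem_norm (norm_phi hg)]

theorem cj_cls (g : G) (Θ : Subgroup G) (b : G) : cj g (cls Θ b) = cls (cj g Θ) (g * b * g⁻¹) := by
  ext x
  rw [mem_cj, cls, cls, ← cj_phi, mem_set_normalizer_iff, mem_set_normalizer_iff]
  simp only [Set.mem_ofPred_eq, mem_cj]
  refine ⟨fun h w => ?_, fun h w => ?_⟩
  · simpa [mul_assoc] using h (g⁻¹ * w * g)
  · simpa [mul_assoc] using h (g * w * g⁻¹)

namespace DihA

theorem act_all (ho : orderOf a = 2 ^ n) (hg : g ∈ normalizer (zpowers a : Set G)) :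
    ∃ t : ℕ, ∀ r ∈ zpowers a, g * r * g⁻¹ = r ^ (2 * t + 1) := by
  obtain ⟨_, ⟨t, rfl⟩, e⟩ := act_odd ho hg
  refine ⟨t, ?_⟩
  rintro _ ⟨i, rfl⟩
  dsimp only
  rw [← conj_zpow, e, ← zpow_natCast, ← zpow_natCast, ← zpow_mul, ← zpow_mul, mul_comm]

theorem odd_gen {t : ℕ} (hx : x ^ 2 ^ n = 1) (ht : Odd t) : x ∈ zpowers (x ^ t) := by
  obtain ⟨i, hi⟩ := exists_pow_eq_self_of_coprime (x := x) (n := t)
    (Nat.Coprime.coprime_dvd_right (orderOf_dvd_of_pow_eq_one hx) (ht.coprime_two_right.pow_right n))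
  exact ⟨i, by simpa using hi⟩

theorem cA {r r' : G} (h1 : r ∈ zpowers a) (h2 : r' ∈ zpowers a) : r * r' = r' * r :=
  comm_zpowers (comm_zpowers rfl h1).symm h2

theorem of_sq {z r : G} (hz : z * z = 1) (hr : r ∈ zpowers z) : r = 1 ∨ r = z := by
  obtain ⟨i, rfl⟩ := mem_powers_iff_mem_zpowers.2 hr
  dsimp only
  rw [pow_eq_pow_mod i (show z ^ 2 = 1 by rw [pow_two, hz])]
  rcases Nat.mod_two_eq_zero_or_one i with e | e <;> simp [e]

variable (h : DQ Θ a b n)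
include h

theorem bm : b ∈ Θ := h.eq ▸ subset_closure (by simp)

theorem aL : zpowers a ≤ Θ := zpowers_le.2 (BsA.am h)

theorem pw {r : G} (hr : r ∈ zpowers a) : r ^ 2 ^ n = 1 := by
  obtain ⟨i, rfl⟩ := hr
  dsimp only
  rw [← zpow_natCast, ← zpow_mul, mul_comm, zpow_mul, zpow_natCast, ← h.ord, pow_orderOf_eq_one, one_zpow]

theorem phiA : phi Θ ≤ zpowers a := h.phi_eq ▸ zpowers_le.2 (mul_mem (mem_zpowers a) (mem_zpowers a))

theorem par (i : ℤ) : a ^ i ∈ phi Θ ↔ Even i := by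
  rw [h.phi_eq]
  refine ⟨fun ⟨k, hk⟩ => ?_, fun ⟨k, hk⟩ => ⟨k, by rw [hk, zpow_add]; exact (Commute.refl a).mul_zpow k⟩⟩
  dsimp only at hk
  rw [(Commute.refl a).mul_zpow, ← zpow_add, zpow_eq_zpow_iff_modEq, h.ord] at hk
  have := (Int.ModEq.of_dvd (m := 2) (by exact_mod_cast dvd_pow_self 2 (Nat.one_le_iff_ne_zero.1 h.pos)) hk).dvd
  exact Int.even_iff.2 (by omega)

theorem odd_mul {u v : G} (hu : u ∈ zpowers a) (hv : v ∈ zpowers a) (h1 : u ∉ phi Θ) (h2 : v ∉ phi Θ) :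
    u * v ∈ phi Θ := by
  obtain ⟨i, rfl⟩ := hu
  obtain ⟨j, rfl⟩ := hv
  dsimp only at h1 h2 ⊢
  rw [par h, Int.not_even_iff_odd] at h1 h2
  rw [← zpow_add, par h]
  exact h1.add_odd h2

theorem sqm {r : G} (hr : r ∈ zpowers a) (t : ℕ) : r ^ (2 * t) ∈ phi Θ := by
  rw [pow_mul, pow_two]
  exact pow_mem (mem_phi (aL h hr)) t

theorem comm_a (ha : g ∈ normalizer (zpowers a : Set G)) {r : G} (hr : r ∈ zpowers a) : ⁅g, r⁆ ∈ phi Θ := by
  obtain ⟨t, e⟩ := act_all h.ord ha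
  rw [commutatorElement_def, e r hr, pow_succ, mul_inv_cancel_right]
  exact sqm h hr t

theorem nphi (ha : g ∈ normalizer (zpowers a : Set G)) : g ∈ normalizer (phi Θ : Set G) :=
  BsA.norm_of_comm fun _ hr => comm_a h ha (phiA h hr)

theorem sq_out {r : G} (hr : r ∈ Θ) (hn : r ∉ zpowers a) : r * r = b * b := by
  replace hr := (h.mem.1 hr).resolve_left hn
  calc r * r = b * (b⁻¹ * r) * b⁻¹ * (b * b * (b⁻¹ * r)) := by group
    _ = _ := by rw [inverts_zpowers h.inv hr, cA (BsA.bb h) hr, inv_mul_cancel_left]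

theorem two_cases {r : G} (hr : r ∈ zpowers a) (h2 : r * r = 1) : r = 1 ∨ r = zz a n := by
  by_cases e : r = 1
  · exact .inl e
  · exact .inr ((of_sq h2 (zz_mem h.ord (zpowers_le.2 hr) (mt zpowers_eq_bot.1 e))).resolve_left h.zz_ne.1).symm

theorem comm_b {r : G} (hr : r ∈ zpowers a) : ⁅r, b⁆ = r * r := by
  rw [commutatorElement_def, mul_assoc, mul_assoc, ← mul_assoc b, inverts_zpowers h.inv (inv_mem hr), inv_inv]

theorem swap_b {r : G} (hr : r ∈ zpowers a) : r * b = b * r⁻¹ := by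
  have := inverts_zpowers h.inv (inv_mem hr)
  rw [inv_inv] at this
  rw [← inv_mul_cancel_right (b * r⁻¹) b, this]

theorem conj_shift (i k : ℤ) : a ^ k * (b * a ^ i) * (a ^ k)⁻¹ = b * a ^ (i - 2 * k) := by
  rw [← mul_assoc, swap_b h (zpow_mem_zpowers a k)]
  group

theorem jA : jj a n ∈ zpowers a := pow_mem (mem_zpowers a) _

theorem jj2 (h2 : 2 ≤ n) : jj a n * jj a n = zz a n := by
  rw [← pow_two, ← pow_mul, ← pow_succ, show n - 2 + 1 = n - 1 by omega]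

/-- An odd power of `j` is `j` or its inverse. -/
theorem j_pow (h2 : 2 ≤ n) (t : ℕ) :
    (Even t → jj a n ^ (2 * t + 1) = jj a n) ∧ (Odd t → jj a n ^ (2 * t + 1) = (jj a n)⁻¹) := by
  have e : ∀ k, zz a n ^ (2 * k) = 1 := fun k => by rw [pow_mul, pow_two, h.zz_ne.2.1, one_pow]
  rw [pow_succ, pow_mul, pow_two, jj2 h h2]
  constructor
  · rintro ⟨k, rfl⟩
    rw [← two_mul, e, one_mul]
  · rintro ⟨k, rfl⟩
    rw [pow_succ, e, one_mul, eq_inv_iff_mul_eq_one, mul_assoc, jj2 h h2, h.zz_ne.2.1]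

theorem j_ne (h2 : 2 ≤ n) : jj a n ≠ (jj a n)⁻¹ := fun e =>
  h.zz_ne.1 (by rw [← jj2 h h2]; exact eq_inv_iff_mul_eq_one.1 e)

theorem sq_comm {t : ℕ} (e : ∀ r ∈ zpowers a, g * r * g⁻¹ = r ^ (2 * t + 1)) (hc : ⁅g, b⁆ ∈ zpowers a) :
    ⁅g * g, b⁆ = (⁅g, b⁆ * ⁅g, b⁆) ^ (t + 1) := by
  rw [commutatorElement_mul_left_eq_conj_mul, e _ hc, ← pow_succ, ← pow_two, ← pow_mul]
  rfl

end DihA

open DihA

namespace DQ
variable (h : DQ Θ a b n)
include h

theorem conj_b (hg : g ∈ normalizer (Θ : Set G)) (ha : g ∈ normalizer (zpowers a : Set G)) :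
    (∃ i : ℕ, g * b * g⁻¹ = b * a ^ i) ∧ ⁅g, b⁆ ∈ zpowers a := by
  have m := (h.mem.1 ((conj_mem_norm hg).2 (bm h))).resolve_left (mt (conj_mem_norm ha).1 h.not_mem)
  obtain ⟨i, hi⟩ := mem_powers_iff_mem_zpowers.2 m
  refine ⟨⟨i, by rw [show a ^ i = _ from hi, mul_inv_cancel_left]⟩, ?_⟩
  have := inv_mem m
  rwa [← inverts_zpowers h.inv m, mul_inv_cancel_left] at this

theorem gen_of_not (h1 : g ∈ zpowers a) (h2 : g ∉ phi Θ) : zpowers g = zpowers a := by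
  obtain ⟨i, rfl⟩ := mem_powers_iff_mem_zpowers.2 h1
  refine le_antisymm (zpowers_le.2 h1) (zpowers_le.2 (odd_gen (pw h (mem_zpowers a)) (Nat.not_even_iff_odd.1 ?_)))
  rintro ⟨k, rfl⟩
  exact h2 (two_mul k ▸ sqm h (mem_zpowers a) k)

theorem norm_a (h3 : 3 ≤ n ∨ (2 ≤ n ∧ b * b = 1)) : normalizer (Θ : Set G) ≤ normalizer (zpowers a : Set G) := fun g hg => by
  refine cj_eq_iff.1 (cj_eq_of_le ?_)
  rw [cj_zpowers, zpowers_le]
  by_contra hn
  have e := sq_out h ((conj_mem_norm hg).2 (BsA.am h)) hn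
  have k : ∀ m : ℕ, m < n → (g * a * g⁻¹) ^ 2 ^ m ≠ 1 := fun m hm =>
    pow_ne_one_of_lt_orderOf (by positivity) (by rw [BsA.ord_cj, h.ord]; exact Nat.pow_lt_pow_right one_lt_two hm)
  rcases h3 with h3 | ⟨h3, e1⟩
  · refine k 2 h3 ?_
    rw [pow_two, pow_mul, pow_two, pow_two, e]
    rcases h.sq with e' | ⟨-, e'⟩ <;> rw [e']
    exacts [mul_one 1, h.zz_ne.2.1]
  · exact k 1 h3 (by rw [pow_one, pow_two, e, e1])

theorem le_norm_a : Θ ≤ normalizer (zpowers a : Set G) := by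
  rw [h.eq, closure_le, Set.insert_subset_iff, Set.singleton_subset_iff]
  exact ⟨le_normalizer (mem_zpowers a), inv_mem_iff.1 (BsA.bn h)⟩

theorem shift (i : ℤ) : DQ Θ a (b * a ^ i) n ∧ b * a ^ i * (b * a ^ i) = b * b := by
  have m := zpow_mem_zpowers a i
  have n1 : b * a ^ i ∉ zpowers a := mt (mul_mem_cancel_right m).1 h.not_mem
  have bm' : b * a ^ i ∈ Θ := mul_mem (bm h) (aL h m)
  have e := sq_out h bm' n1
  refine ⟨⟨h.pos, h.ord, by rw [← conj_conj, conj_eq_of_comm (cA m (mem_zpowers a)), h.inv], n1,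
    le_antisymm (h.eq.le.trans ?_) ?_, e ▸ h.sq⟩, e⟩ <;>
    rw [closure_le, Set.insert_subset_iff, Set.singleton_subset_iff]
  · have ma : a ∈ closure {a, b * a ^ i} := subset_closure (by simp)
    exact ⟨ma, (mul_mem_cancel_right (zpow_mem ma i)).1 (subset_closure (by simp))⟩
  · exact ⟨BsA.am h, bm'⟩

theorem regen (e : zpowers a' = zpowers a) :
    DQ Θ a' b n ∧ zz a' n = zz a n ∧ zpowers (jj a' n) = zpowers (jj a n) := by
  have m : a' ∈ zpowers a := e.le (mem_zpowers a')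
  have k : ∀ {u v : G}, u ∈ zpowers v → ∀ m : ℕ, u ^ m ∈ zpowers (v ^ m) := by
    rintro u v ⟨i, rfl⟩ m
    exact ⟨i, by simp only [← zpow_natCast, ← zpow_mul, mul_comm]⟩
  have o : orderOf a' = 2 ^ n := by rw [← Nat.card_zpowers, e, Nat.card_zpowers, h.ord]
  have z : zz a' n = zz a n := (of_sq h.zz_ne.2.1 (k m _)).resolve_left (pow_ne_one_of_lt_orderOf (by positivity)
    (o ▸ Nat.pow_lt_pow_right one_lt_two (by have := h.pos; omega)))
  refine ⟨⟨h.pos, o, inverts_zpowers h.inv m, e ▸ h.not_mem, ?_, z ▸ h.sq⟩, z,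
    le_antisymm (zpowers_le.2 (k m _)) (zpowers_le.2 (k (e.ge (mem_zpowers a)) _))⟩
  rw [h.eq, Set.insert_eq, Set.insert_eq a', Subgroup.closure_union, Subgroup.closure_union, ← zpowers_eq_closure,
    ← zpowers_eq_closure a', e]

theorem jj_sq (h2 : 2 ≤ n) : jj a n * jj a n = zz a n ∧ b * jj a n * b⁻¹ = (jj a n)⁻¹ ∧ ⁅jj a n, b⁆ = zz a n :=
  ⟨jj2 h h2, inverts_zpowers h.inv (jA h), (comm_b h (jA h)).trans (jj2 h h2)⟩

/-- The centraliser of `j` and the centre. -/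
theorem cen (h2 : 2 ≤ n) (hg : g ∈ Θ) :
    (g * jj a n = jj a n * g ↔ g ∈ zpowers a) ∧ (Cz g Θ ↔ g ∈ zpowers (zz a n)) := by
  have k : g * jj a n = jj a n * g → g ∈ zpowers a := fun e => (h.mem.1 hg).elim id fun m => (j_ne h h2 (by
    have := inverts_zpowers h.inv (jA h)
    rw [← this]
    conv_rhs => rw [← conj_eq_of_comm (cA m (jA h)), conj_conj, mul_inv_cancel_left, conj_eq_of_comm e])).elim
  refine ⟨⟨k, fun m => cA m (jA h)⟩, fun c => ?_, fun m r hr => (comm_zpowers (h.zz_ne.2.2 r hr).symm m).symm⟩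
  rcases two_cases h (k (c _ (aL h (jA h)))) ((comm_b h (k (c _ (aL h (jA h))))).symm.trans
    (commutatorElement_eq_one_iff_mul_comm.2 (c b (bm h)))) with e | e <;> rw [e]
  exacts [one_mem _, mem_zpowers _]

theorem le_cls : Θ ≤ cls Θ b := fun _ hg => (mem_cls (le_normalizer hg)).2 (comm_mem_phi hg (bm h))

theorem ix_cls (hS : S ≤ normalizer (Θ : Set G)) (ha : S ≤ normalizer (zpowers a : Set G)) (hg : g ∈ S)
    (hn : g ∉ cls Θ b) : Ix S (cls Θ b) g := fun y hy => by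
  rw [mem_cls (hS hg)] at hn
  rw [mem_cls (hS hy), mem_cls (hS (mul_mem hg hy)), commutatorElement_mul_left_eq_conj_mul, or_iff_not_imp_left]
  exact fun e => odd_mul h ((conj_mem_norm (ha hg)).2 (h.conj_b (hS hy) (ha hy)).2) (h.conj_b (hS hg) (ha hg)).2
    (mt (conj_mem_norm (norm_phi (hS hg))).1 e) hn

theorem cls_shift (hg : g ∈ normalizer (Θ : Set G)) (ha : g ∈ normalizer (zpowers a : Set G)) (i : ℤ) :
    g ∈ cls Θ (b * a ^ i) ↔ g ∈ cls Θ b := by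
  rw [mem_cls hg, mem_cls hg, commutatorElement_mul_right_eq_mul_conj, mul_assoc, mul_assoc, ← mul_assoc b,
    mul_mem_cancel_right ((conj_mem_norm (norm_phi (le_normalizer (bm h)))).2 (comm_a h ha (zpow_mem_zpowers a i)))]

theorem cls_decomp (ha : g ∈ normalizer (zpowers a : Set G)) (hc : ⁅g, b⁆ ∈ phi Θ) :
    ∃ i : ℤ, g * a ^ i * b = b * (g * a ^ i) := by
  obtain ⟨i, hi⟩ := h.phi_eq.le ((conj_mem_norm (inv_mem (nphi h ha))).2 (inv_mem hc))
  dsimp only at hi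
  refine ⟨i, commutatorElement_eq_one_iff_mul_comm.1 ?_⟩
  rw [commutatorElement_mul_left_eq_conj_mul, comm_b h (zpow_mem_zpowers a i), ← (Commute.refl a).mul_zpow, hi]
  group

/-- An element that swaps the classes may be adjusted. -/
theorem swap_of_not (hg : g ∈ normalizer (Θ : Set G)) (ha : g ∈ normalizer (zpowers a : Set G)) (hc : ⁅g, b⁆ ∉ phi Θ) :
    ∃ i : ℤ, a ^ i * g * b * (a ^ i * g)⁻¹ = b * a := by
  obtain ⟨i, e⟩ := (h.conj_b hg ha).1
  obtain ⟨k, rfl⟩ : Odd i := Nat.not_even_iff_odd.1 (by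
    rintro ⟨k, rfl⟩
    rw [commutatorElement_def, e, ← two_mul] at hc
    exact hc ((conj_mem_norm (norm_phi (le_normalizer (bm h)))).2 (sqm h (mem_zpowers a) k)))
  refine ⟨k, ?_⟩
  rw [← conj_conj, e, ← zpow_natCast a (2 * k + 1), conj_shift h]
  simp

theorem not_cls_of_swap (e : g * b * g⁻¹ = b * a) : ⁅g, b⁆ ∉ phi Θ := by
  rw [commutatorElement_def, e, h.inv, inv_mem_iff, ← zpow_one a, par h]
  decide

theorem orbit (hN : Θ ≤ N) (hg : g ∈ N) (e : g * b * g⁻¹ = b * a) (i : ℤ) : ∃ w ∈ N, w * b * w⁻¹ = b * a ^ i := by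
  have m : ∀ k : ℤ, a ^ k ∈ N := fun k => hN (aL h (zpow_mem_zpowers a k))
  rcases Int.even_or_odd' i with ⟨k, rfl | rfl⟩
  · exact ⟨_, m (-k), by simpa using conj_shift h 0 (-k)⟩
  · refine ⟨_, mul_mem (m (-k)) hg, ?_⟩
    rw [← conj_conj, e, ← zpow_one a, ← zpow_mul, ← zpow_mul, one_mul, one_mul, conj_shift h]
    congr 2
    ring

theorem normal_cases (hN : Θ ≤ N) (hg : g ∈ N) (e : g * b * g⁻¹ = b * a) (hK : K ≤ Θ)
    (hn : N ≤ normalizer (K : Set G)) : K ≤ zpowers a ∨ K = Θ := by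
  refine or_iff_not_imp_left.2 fun h1 => le_antisymm hK (h.eq.le.trans ?_)
  obtain ⟨k, hk, hk'⟩ := SetLike.not_le_iff_exists.1 h1
  obtain ⟨i, hi⟩ := (h.mem.1 (hK hk)).resolve_left hk'
  obtain ⟨w, hw, e'⟩ := h.orbit hN hg e i
  have mb : b ∈ K := (conj_mem_norm (hn hw)).1 (by rw [e', show a ^ i = _ from hi, mul_inv_cancel_left]; exact hk)
  rw [closure_le, Set.insert_subset_iff, Set.singleton_subset_iff]
  exact ⟨(mul_mem_cancel_left mb).1 (e ▸ (conj_mem_norm (hn hg)).2 mb), mb⟩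

theorem exists_fix (h2 : 2 ≤ n) (ha : g ∈ normalizer (zpowers a : Set G)) (hj : g * jj a n * g⁻¹ = (jj a n)⁻¹)
    (hc : ⁅g, b⁆ ∈ phi Θ) : ∃ i : ℤ, g * (b * a ^ i) = b * a ^ i * g := by
  obtain ⟨t, e⟩ := act_all h.ord ha
  have ht : Odd t := Nat.not_even_iff_odd.1 fun ev => j_ne h h2 (by rw [← hj, e _ (jA h), (j_pow h h2 t).1 ev])
  obtain ⟨i, hi⟩ := zpowers_le.2 (odd_gen (pw h (mul_mem (mem_zpowers a) (mem_zpowers a))) ht) (h.phi_eq.le hc)
  dsimp only at hi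
  refine ⟨i, commutatorElement_eq_one_iff_mul_comm.1 ?_⟩
  have e' : ⁅g, a ^ i⁆ = ⁅g, b⁆ := by
    rw [← hi, commutatorElement_def, e _ (zpow_mem_zpowers a i), pow_succ, mul_inv_cancel_right, ← pow_two, ← pow_mul,
      ← zpow_natCast, ← zpow_natCast, ← zpow_mul, ← zpow_mul, mul_comm]
  rw [commutatorElement_mul_right_eq_mul_conj, e', mul_assoc, mul_assoc, ← mul_assoc b,
    inverts_zpowers h.inv (phiA h hc), mul_inv_cancel]

theorem exists_comm (hS : Θ ≤ S) (hv : v ∈ S) (v2 : v * v = 1) (ha : v ∈ normalizer (zpowers a : Set G))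
    (hc : ⁅v, b⁆ ∈ phi Θ) (hr : ∀ r ∈ S, r * r = zz a n → r * b ≠ b * r) :
    ∃ i : ℤ, v * (b * a ^ i) = b * a ^ i * v := by
  by_cases c1 : ⁅v, b⁆ = 1
  · exact ⟨0, by simpa using commutatorElement_eq_one_iff_mul_comm.1 c1⟩
  have h2 : 2 ≤ n := by
    by_contra h2
    obtain rfl : n = 1 := by have := h.pos; omega
    rw [h.phi_eq, ← pow_two, show a ^ 2 = 1 from pw h (mem_zpowers a), zpowers_one_eq_bot] at hc
    exact c1 hc
  obtain ⟨t, e⟩ := act_all h.ord ha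
  rcases Nat.even_or_odd t with ht | ht
  swap
  · exact h.exists_fix h2 ha (by rw [e _ (jA h), (j_pow h h2 t).2 ht]) hc
  have vj : v * jj a n = jj a n * v := comm_of_conj_eq (by rw [e _ (jA h), (j_pow h h2 t).1 ht])
  have cA' := phiA h hc
  have e1 := sq_comm h e cA'
  rw [v2, commutatorElement_one_left] at e1
  have e2 := odd_gen (pw h (mul_mem cA' cA')) ht.add_one
  rw [← e1, zpowers_one_eq_bot] at e2
  have e3 := (two_cases h cA' e2).resolve_left c1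
  refine (hr (v * jj a n) (mul_mem hv (hS (aL h (jA h)))) ?_ (commutatorElement_eq_one_iff_mul_comm.1 ?_)).elim
  · rw [mul_assoc, ← mul_assoc (jj a n), ← vj, mul_assoc, ← mul_assoc, v2, one_mul, jj2 h h2]
  · rw [commutatorElement_mul_left_eq_conj_mul, comm_b h (jA h), conj_mul', conj_eq_of_comm vj, jj2 h h2, e3,
      h.zz_ne.2.1]

theorem pow_comm (ha : g ∈ normalizer (zpowers a : Set G)) (hc : ⁅g, b⁆ ∈ phi Θ) :
    g ^ 2 ^ (n - 1) * b = b * g ^ 2 ^ (n - 1) := by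
  have k : ∀ i : ℕ, ⁅g ^ 2 ^ i, b⁆ ∈ zpowers (a ^ 2 ^ (i + 1)) := fun i => by
    induction i with
    | zero => simpa [pow_two] using h.phi_eq.le hc
    | succ i ih =>
      obtain ⟨t, e⟩ := act_all h.ord (pow_mem ha (2 ^ i))
      rw [pow_succ 2 i, pow_mul, pow_two, sq_comm h e (zpowers_le.2 (pow_mem (mem_zpowers a) _) ih)]
      obtain ⟨k, hk⟩ := ih
      refine pow_mem (mem_zpowers_iff.2 ⟨k, ?_⟩) _
      dsimp only at hk
      rw [← hk, ← (Commute.refl _).mul_zpow, ← pow_two, ← pow_mul, ← pow_succ]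
  have := k (n - 1)
  rw [show n - 1 + 1 = n by have := h.pos; omega, pw h (mem_zpowers a), zpowers_one_eq_bot] at this
  exact commutatorElement_eq_one_iff_mul_comm.1 this

/-- The parity of the inner automorphism induced by a square. -/
theorem sq_par (h2 : 2 ≤ n) (hg : g ∈ normalizer (Θ : Set G)) (ha : g ∈ normalizer (zpowers a : Set G))
    (hj : g * jj a n = jj a n * g) (hv : v ∈ Θ) (e : Cz (v⁻¹ * (g * g)) Θ) :
    v ∈ zpowers a ∧ (v ∈ phi Θ ↔ ⁅g, b⁆ ∈ phi Θ) := by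
  have m : v ∈ zpowers a := (h.cen h2 hv).1.1 (by
    have c1 : Commute (v⁻¹ * (g * g)) (jj a n) := e _ (aL h (jA h))
    have c2 : Commute g (jj a n) := hj
    simpa [mul_assoc] using ((c2.mul_left c2).mul_left c1.inv_left).eq)
  obtain ⟨t, e1⟩ := act_all h.ord ha
  have ht : Even t := Nat.not_odd_iff_even.1 fun o => j_ne h h2 (by
    rw [← (j_pow h h2 t).2 o, ← e1 _ (jA h), conj_eq_of_comm hj])
  have c := (h.conj_b hg ha).2
  have e2 := sq_comm h e1 c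
  rw [← mul_inv_cancel_left v (g * g), commutatorElement_mul_left_eq_conj_mul,
    commutatorElement_eq_one_iff_mul_comm.2 (e b (bm h)), comm_b h m, mul_one, mul_inv_cancel, one_mul,
    (Commute.refl _).mul_pow] at e2
  have m' := pow_mem c (t + 1)
  have e3 : v⁻¹ * ⁅g, b⁆ ^ (t + 1) ∈ phi Θ := by
    rcases two_cases h (mul_mem (inv_mem m) m') (by
      rw [mul_assoc, ← mul_assoc _ v⁻¹, cA m' (inv_mem m), mul_assoc, ← e2]; group) with e | e <;> rw [e]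
    exacts [one_mem _, jj2 h h2 ▸ mem_phi (aL h (jA h))]
  obtain ⟨k, rfl⟩ := ht
  rw [pow_succ', ← two_mul, ← mul_assoc, mul_mem_cancel_right (sqm h c k)] at e3
  exact ⟨m, fun e => (mul_mem_cancel_left (inv_mem e)).1 e3, fun e => inv_mem_iff.1 ((mul_mem_cancel_right e).1 e3)⟩

end DQ

end Cfsg.Agent.GH
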