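import Mathlib

/-! The elementary abelian group of order 16 as a free module for a four-group: the finite check of section E3. -/

set_option autoImplicit false
set_option synthInstance.maxSize 100000
set_option synthInstance.maxHeartbeats 1000000

namespace Cfsg.Agent.GH.E3

/-- The elementary abelian group of order 16. -/
@[ext] structure W where
  (a b c d : Bool)

namespace W

instance : DecidableEq W := fun x y =>
  decidable_of_iff (x.a = y.a ∧ x.b = y.b ∧ x.c = y.c ∧ x.d = y.d) W.ext_iff.symm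

instance decAll (q : W → Prop) [DecidablePred q] : Decidable (∀ p, q p) :=
  decidable_of_iff (∀ a b c d, q ⟨a, b, c, d⟩) ⟨fun h _ => h _ _ _ _, fun h _ _ _ _ => h _⟩

instance decEx (q : W → Prop) [DecidablePred q] : Decidable (∃ p, q p) :=
  decidable_of_iff (∃ a b c d, q ⟨a, b, c, d⟩) ⟨fun ⟨_, _, _, _, h⟩ => ⟨_, h⟩, fun ⟨p, h⟩ => ⟨p.a, p.b, p.c, p.d, h⟩⟩

instance : Mul W := ⟨fun x y => ⟨x.a ^^ y.a, x.b ^^ y.b, x.c ^^ y.c, x.d ^^ y.d⟩⟩
instance : One W := ⟨⟨false, false, false, false⟩⟩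
instance : Inv W := ⟨fun p => p⟩

instance : Group W := Group.ofLeftAxioms (by decide +kernel) (by decide +kernel) (by decide +kernel)

instance : CommGroup W := { (inferInstance : Group W) with mul_comm := by decide +kernel }

/-- The list of all elements. -/
def all : List W := [false, true].flatMap fun a => [false, true].flatMap fun b => [false, true].flatMap fun c =>
  [false, true].map fun d => ⟨a, b, c, d⟩

instance : Fintype W := ⟨⟨all, by decide +kernel⟩, by decide +kernel⟩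

theorem card : Nat.card W = 16 := by rw [Nat.card_eq_fintype_card]; rfl

theorem sq (u : W) : u * u = 1 := by revert u; decide +kernel

theorem inv_eq (u : W) : u⁻¹ = u := rfl

end W

/-- The first basis vector. -/
def e0 : W := ⟨true, false, false, false⟩
/-- The second basis vector. -/
def e1 : W := ⟨false, true, false, false⟩
/-- The third basis vector. -/
def e2 : W := ⟨false, false, true, false⟩
/-- The fourth basis vector. -/
def e3 : W := ⟨false, false, false, true⟩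

/-- The homomorphism with given values on the basis. -/
def lin (p q r s u : W) : W := cond u.a p 1 * (cond u.b q 1 * (cond u.c r 1 * cond u.d s 1))

theorem lin_mul (p q r s u v : W) : lin p q r s (u * v) = lin p q r s u * lin p q r s v := by
  have k : ∀ (a b : Bool) (z : W), cond (a ^^ b) z 1 = cond a z 1 * cond b z 1 := fun a b z => by
    cases a <;> cases b <;> simp [W.sq]
  show cond (u.a ^^ v.a) p 1 * (cond (u.b ^^ v.b) q 1 * (cond (u.c ^^ v.c) r 1 * cond (u.d ^^ v.d) s 1)) = _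
  simp only [k, lin]; ac_rfl

theorem map_one' {φ : W → W} (h : ∀ u v, φ (u * v) = φ u * φ v) : φ 1 = 1 := by simpa using h 1 1

theorem map_lin {φ : W → W} (h : ∀ u v, φ (u * v) = φ u * φ v) (p q r s u : W) :
    φ (lin p q r s u) = lin (φ p) (φ q) (φ r) (φ s) u := by
  have k : ∀ (a : Bool) (z : W), cond a (φ z) 1 = φ (cond a z 1) := fun a z => by cases a <;> simp [map_one' h]
  simp only [lin, k, ← h]

theorem eq_lin {φ : W → W} (h : ∀ u v, φ (u * v) = φ u * φ v) (u : W) : φ u = lin (φ e0) (φ e1) (φ e2) (φ e3) u := by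
  have e : ∀ u : W, u = lin e0 e1 e2 e3 u := by decide +kernel
  rw [← map_lin h]
  exact congrArg φ (e u)

/-- The first involution. -/
def τ1 (u : W) : W := ⟨u.b, u.a, u.d, u.c⟩
/-- The second involution. -/
def τ2 (u : W) : W := ⟨u.c, u.d, u.a, u.b⟩
/-- Their product. -/
def σ (u : W) : W := ⟨u.d, u.c, u.b, u.a⟩
/-- The element of order three. -/
def ξ (w w' : W) : W → W := lin w (τ1 w') (τ2 w) (σ w')
/-- The interchanging involution. -/
def η (v : W) : W → W := lin v (τ2 v) (τ1 v) (σ v)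

/-- The order of the commutator space. -/
def cnt (φ : W → W) : ℕ := (Finset.univ.filter fun u => ∃ p, u = φ p * p).card

/-- The points reached from `e0`. -/
def orb (f g : W → W) : ℕ → List W
  | 0 => [e0]
  | n + 1 => ((orb f g n).flatMap fun u => [u, f u, g u]).dedup

theorem orb_ind {f g : W → W} {P : W → Prop} (h0 : P e0) (hf : ∀ u, P u → P (f u)) (hg : ∀ u, P u → P (g u)) :
    ∀ n, ∀ u ∈ orb f g n, P u
  | 0, u, h => by rw [List.mem_singleton.1 h]; exact h0
  | n + 1, u, h => by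
    simp only [orb, List.mem_dedup, List.mem_flatMap, List.mem_cons, List.not_mem_nil, or_false] at h
    obtain ⟨v, hv, rfl | rfl | rfl⟩ := h
    exacts [orb_ind h0 hf hg n _ hv, hf _ (orb_ind h0 hf hg n _ hv), hg _ (orb_ind h0 hf hg n _ hv)]

/-- The commuting case. -/
def Cm (α β x y : W → W) : Prop :=
  (∀ u, α (y u) = y (α u)) ∧ (∀ u, β (y (σ u)) = y (σ (β u))) ∧ (∀ u, α (β (α (β u))) = x u) ∧
    (∀ u, u = α (α u) * α u * (β (β u) * β u)) ∧ (∀ u, ∃ p q, u = τ2 p * p * α (τ2 q * q)) ∧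
    cnt y = 2 ∧ cnt (fun u => y (σ u)) = 2

/-- `φ` is induced by the four-group generated by `σ` and `y`. -/
def In (y φ ψ : W → W) : Prop := (∀ u, φ u = σ (ψ u)) ∨ (∀ u, φ u = y (ψ u)) ∨ ∀ u, φ u = σ (y (ψ u))

/-- The transitive case. -/
def S5 (x x₂ ρ y : W → W) : Prop :=
  (∀ u, u ≠ 1 → u ∈ orb x x₂ 8) ∧ (∀ u, σ (y u * u) = y u * u) ∧ (∀ u, σ (σ (y u) * u) = σ (y u) * u) ∧
    (∀ u, y u = u → σ u = u) ∧ (∀ u, σ (y u) = u → σ u = u) ∧ In y (fun u => ρ (σ u)) ρ ∧ In y (fun u => ρ (y u)) ρ ∧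
    ∀ u, σ (ρ u * u) = ρ u * u → σ u = u

instance (α β x y : W → W) : Decidable (Cm α β x y) := by unfold Cm; infer_instance
instance (y φ ψ : W → W) : Decidable (In y φ ψ) := by unfold In; infer_instance
instance (x x₂ ρ y : W → W) : Decidable (S5 x x₂ ρ y) := by unfold S5; infer_instance

/-- The conjugate of `x` by `y`. -/
def cn (x y : W → W) (u : W) : W := y (x (y u))

theorem fin : ∀ w w' : W, ξ w w' w' = e0 → (∀ u, ξ w w' u = u → u = 1) → (∀ u, ξ w w' (ξ w w' (ξ w w' u)) = u) →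
    ∀ v : W, (∀ u, η v (η v u) = u) →
      Cm (fun u => ξ w w' (cn (ξ w w') (η v) u)) (fun u => ξ w w' (cn (ξ w w') (η v) (cn (ξ w w') (η v) u))) (ξ w w') (η v) ∨
      S5 (ξ w w') (cn (ξ w w') (η v))
        (fun u => cn (ξ w w') (η v) (ξ w w' (cn (ξ w w') (η v) (cn (ξ w w') (η v) u)))) (η v) := by
  decide +kernel

/-- A free module has a basis permuted by the four-group. -/
theorem rebase {f g : W → W} (hf : ∀ u v, f (u * v) = f u * f v) (hg : ∀ u v, g (u * v) = g u * g v)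
    (ff : ∀ u, f (f u) = u) (gg : ∀ u, g (g u) = u) (fg : ∀ u, g (f u) = f (g u)) {p : W}
    (hp : p * (f p * (g p * f (g p))) ≠ 1) : ∃ κ : W ≃* W, ∀ u, f (κ u) = κ (τ1 u) ∧ g (κ u) = κ (τ2 u) := by
  let κ : W →* W := MonoidHom.mk' (lin p (f p) (g p) (f (g p))) (lin_mul _ _ _ _)
  have h1 : ∀ u, f (κ u) = κ (τ1 u) := fun u => by
    show f (lin _ _ _ _ u) = lin _ _ _ _ (τ1 u)
    rw [map_lin hf]; simp only [ff, lin, τ1]; ac_rfl
  have h2 : ∀ u, g (κ u) = κ (τ2 u) := fun u => by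
    show g (lin _ _ _ _ u) = lin _ _ _ _ (τ2 u)
    rw [map_lin hg]; simp only [gg, fg, lin, τ2]; ac_rfl
  have hi : Function.Injective κ := (injective_iff_map_eq_one κ).2 fun u hu => by
    by_contra hne
    have k : ∀ u : W, u ≠ 1 → u = ⟨true, true, true, true⟩ ∨ u * τ1 u = ⟨true, true, true, true⟩ ∨
        u * τ2 u = ⟨true, true, true, true⟩ ∨ u * τ1 u * τ2 u * τ1 (τ2 u) = ⟨true, true, true, true⟩ := by
      decide +kernel
    have a1 : κ (τ1 u) = 1 := by rw [← h1, hu, map_one' hf]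
    have a2 : κ (τ2 u) = 1 := by rw [← h2, hu, map_one' hg]
    have a3 : κ (τ1 (τ2 u)) = 1 := by rw [← h1, a2, map_one' hf]
    apply hp
    show κ ⟨true, true, true, true⟩ = 1
    rcases k u hne with e | e | e | e <;> simp only [← e, map_mul, hu, a1, a2, a3, one_mul]
  exact ⟨MulEquiv.ofBijective κ (Finite.injective_iff_bijective.1 hi), fun u => ⟨h1 u, h2 u⟩⟩

theorem eq_ξ {φ ψ : W → W} (h : ∀ u v, φ (u * v) = φ u * φ v) (h1 : ∀ u, φ (τ1 u) = τ1 (ψ u))
    (h2 : ∀ u, φ (τ2 u) = τ2 (φ u)) (h3 : ∀ u, ψ (τ2 u) = τ2 (ψ u)) (u : W) : φ u = ξ (φ e0) (ψ e0) u := by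
  rw [eq_lin h, ξ, show e1 = τ1 e0 from rfl, show e2 = τ2 e0 from rfl, show e3 = τ1 (τ2 e0) from rfl, h1, h2, h1, h3]
  rfl

theorem eq_η {φ : W → W} (h : ∀ u v, φ (u * v) = φ u * φ v) (h1 : ∀ u, φ (τ1 u) = τ2 (φ u))
    (h2 : ∀ u, φ (τ2 u) = τ1 (φ u)) (u : W) : φ u = η (φ e0) u := by
  rw [eq_lin h, η, show e1 = τ1 e0 from rfl, show e2 = τ2 e0 from rfl, show e3 = τ1 (τ2 e0) from rfl, h1, h2, h1, h2]
  rfl

theorem cnt_τ2 : cnt τ2 = 4 := by decide +kernel

end Cfsg.Agent.GH.E3
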