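import Mathlib
import Cfsg.Agent.GH.Defs
import Cfsg.Agent.GH.Basic

/-! A Sylow 2-subgroup `R = A B` of `L₃(4)` inside a 2-group of sectional rank at most four is normal. -/

set_option autoImplicit false
set_option linter.unusedSectionVars false

namespace Cfsg.Agent.GH.UL

open Cfsg.Agent.Inv.Fz Cfsg.Agent.NE Subgroup
open scoped commutatorElement

variable {G : Type*} [Group G] [Finite G] {S A B U E K : Subgroup G} {a b g k p q v w x y : G}

theorem four_cases (hU : El 4 U) (hp : p ∈ U) (hq : q ∈ U) (p1 : p ≠ 1) (q1 : q ≠ 1) (pq : p * q ≠ 1) (hv : v ∈ U) :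
    v = 1 ∨ v = p ∨ v = q ∨ v = q * p := by
  obtain ⟨h1, h2, h3⟩ := ext_elem (A := ⊥) (x := p) (by simp) (hU.sq p hp) (by simp)
  have h4 : ∀ g, g ∈ ext ⊥ p ↔ g = 1 ∨ g = p := fun g => by
    rw [h1, mem_bot, mem_bot, mul_eq_one_iff_inv_eq, inv_of_sq (hU.sq p hp), eq_comm (b := g)]
  have hle : ext ⊥ p ≤ U := ext_le.2 ⟨bot_le, hp⟩
  obtain ⟨h5, -, h7⟩ := ext_elem h2 (hU.sq q hq) fun a ha => comm_of_sq hU.sq hq (hle ha)
  have h8 : ext (ext ⊥ p) q = U := eq_of_le_of_card_ge (ext_le.2 ⟨hle, hq⟩) (by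
    rw [h7 (by rw [h4, not_or]; exact ⟨q1, fun e => pq (by rw [e, hU.sq p hp])⟩), h3 (by simpa using p1), hU.card]
    simp)
  rw [← h8, h5, h4, h4, or_assoc, mul_eq_one_iff_inv_eq, ← eq_inv_mul_iff_mul_eq, inv_of_sq (hU.sq q hq),
    eq_comm (b := v)] at hv
  exact hv

theorem cz_of_two (hU : El 4 U) (hp : p ∈ U) (hq : q ∈ U) (p1 : p ≠ 1) (q1 : q ≠ 1) (pq : p * q ≠ 1)
    (e1 : y * p = p * y) (e2 : y * q = q * y) : Cz y U := fun v hv => by
  rcases four_cases hU hp hq p1 q1 pq hv with rfl | rfl | rfl | rfl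
  exacts [by simp, e1, e2, by rw [← mul_assoc, e2, mul_assoc, e1, mul_assoc]]

theorem exists_not_mem (h : Nat.card K < Nat.card E) : ∃ x ∈ E, x ∉ K := by
  by_contra! e
  exact absurd (card_le_of_le (show E ≤ K from e)) (not_le.2 h)

/-- Two elements independent modulo `U`. -/
theorem exists_two (h2 : ∀ x ∈ E, x * x = 1) (h : 2 * Nat.card (E ⊓ U : Subgroup G) < Nat.card E) :
    ∃ a ∈ E, ∃ b ∈ E, a ∉ U ∧ b ∉ U ∧ a * b ∉ U := by
  obtain ⟨a, ha, a1⟩ := exists_not_mem (K := E ⊓ U) (E := E) (by omega)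
  obtain ⟨h1, -, h3⟩ := ext_elem (A := E ⊓ U) (fun x hx => h2 x hx.1) (h2 a ha) fun x hx => comm_of_sq h2 ha hx.1
  obtain ⟨b, hb, b1⟩ := exists_not_mem (K := ext (E ⊓ U) a) (E := E) (by rw [h3 a1]; exact h)
  rw [h1, not_or] at b1
  exact ⟨a, ha, b, hb, fun e => a1 ⟨ha, e⟩, fun e => b1.1 ⟨hb, e⟩, fun e => b1.2 ⟨mul_mem ha hb, e⟩⟩

/-- A central involution of `S` in a normal four-group, and the action on the rest. -/
theorem exists_zu (hS : IsPGroup 2 S) (hU : El 4 U) (hle : U ≤ S) (hn : S ≤ normalizer (U : Set G)) :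
    ∃ z ∈ U, ∃ u ∈ U, z ≠ 1 ∧ u ≠ 1 ∧ z * u ≠ 1 ∧ (∀ s ∈ S, s * z = z * s) ∧
      ∀ s ∈ S, ¬ Cz s U → s * u * s⁻¹ = u * z := by
  obtain ⟨z, hz, z1, -, hc⟩ := exists_central_mod (N := ⊥) hS (fun s _ => by rw [← cj_eq_iff, cj_bot]) hle hn fun e => by
    have := card_le_of_le e
    rw [hU.card, card_bot] at this
    omega
  have hc' : ∀ s ∈ S, s * z = z * s := fun s hs => comm_of_conj_eq (mul_inv_eq_one.1 (mem_bot.1 (hc s hs)))
  obtain ⟨h1, -, h3⟩ := ext_elem (A := ⊥) (x := z) (by simp) (hU.sq z hz) (by simp)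
  obtain ⟨u, hu, u1⟩ := exists_not_mem (K := ext ⊥ z) (E := U) (by rw [h3 z1, hU.card]; simp)
  rw [h1, not_or, mem_bot, mem_bot] at u1
  rw [mem_bot] at z1
  refine ⟨z, hz, u, hu, z1, u1.1, u1.2, hc', fun s hs h => ?_⟩
  rcases four_cases hU hz hu z1 u1.1 u1.2 ((conj_mem_norm (hn hs)).2 hu) with e | e | e | e
  · exact absurd (by simpa using e) u1.1
  · rw [← conj_eq_of_comm (hc' s hs), conj_inj] at e
    exact absurd (by rw [e, hU.sq z hz]) u1.2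
  · exact absurd (cz_of_two hU hz hu z1 u1.1 u1.2 (hc' s hs) (comm_of_conj_eq e)) h
  · exact e

theorem cz_mul (hS : IsPGroup 2 S) (hU : El 4 U) (hle : U ≤ S) (hn : S ≤ normalizer (U : Set G)) (hx : x ∈ S)
    (hy : y ∈ S) (h1 : ¬ Cz x U) (h2 : ¬ Cz y U) : Cz (x * y) U := by
  obtain ⟨z, hz, u, hu, z1, u1, zu, hc, hm⟩ := exists_zu hS hU hle hn
  refine cz_of_two hU hz hu z1 u1 zu (hc _ (mul_mem hx hy)) (comm_of_conj_eq ?_)
  rw [← conj_conj, hm y hy h2, conj_mul', hm x hx h1, conj_eq_of_comm (hc x hx), mul_assoc, hU.sq z hz, mul_one]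

/-- The configuration inside a 2-group of sectional rank at most four. -/
structure LS (S A B U : Subgroup G) : Prop extends L34 S A B U where
  p : IsPGroup 2 S
  r4 : Rk 16 S

namespace LS

theorem symm (h : LS S A B U) : LS S B A U :=
  ⟨⟨h.leB, h.leA, h.elB, h.elA, h.elU, h.UB, h.UA, fun y hy x hx => by
    simpa using inv_mem (h.comm x hx y hy), fun y hy x hx e => (h.nd x hx y hy e.symm).symm⟩, h.p, h.r4⟩

theorem exists_A (h : LS S A B U) : ∃ x ∈ A, x ∉ U := exists_not_mem (by rw [h.elA.card, h.elU.card]; norm_num)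

theorem two_A (h : LS S A B U) : ∃ a ∈ A, ∃ b ∈ A, a ∉ U ∧ b ∉ U ∧ a * b ∉ U :=
  exists_two h.elA.sq (by rw [inf_eq_right.2 h.UA, h.elA.card, h.elU.card]; norm_num)

theorem inf (h : LS S A B U) (hA : x ∈ A) (hB : x ∈ B) : x ∈ U := (h.nd x hA x hB rfl).elim id id

theorem inf_eq (h : LS S A B U) : A ⊓ B = U := le_antisymm (fun _ hx => h.inf hx.1 hx.2) (le_inf h.UA h.UB)

theorem normB' (h : LS S A B U) : A ≤ normalizer (B : Set G) := fun x hx =>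
  mem_normalizer_of_conj_mem fun y hy => by
    simpa [commutatorElement_def] using mul_mem (h.UB (h.comm x hx y hy)) hy

theorem mem_R (h : LS S A B U) : g ∈ A ⊔ B ↔ ∃ x ∈ A, ∃ y ∈ B, g = x * y := mem_sup_iff_of_le_normalizer h.normB'

theorem R_le (h : LS S A B U) : A ⊔ B ≤ S := sup_le h.leA h.leB

theorem U_le (h : LS S A B U) : U ≤ A ⊔ B := h.UA.trans le_sup_left

theorem RU (h : LS S A B U) (hg : g ∈ A ⊔ B) : Cz g U := fun v hv => by
  obtain ⟨x, hx, y, hy, rfl⟩ := h.mem_R.1 hg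
  rw [mul_assoc, comm_of_sq h.elB.sq hy (h.UB hv), ← mul_assoc, comm_of_sq h.elA.sq hx (h.UA hv), mul_assoc]

theorem card_R (h : LS S A B U) : Nat.card (A ⊔ B : Subgroup G) = 64 := by
  have h2 : (B.subgroupOf (A ⊔ B)).Normal :=
    (normal_subgroupOf_iff_le_normalizer le_sup_right).2 (sup_le h.normB' le_normalizer)
  have h3 := relIndex_sup_right (A.subgroupOf (A ⊔ B)) (B.subgroupOf (A ⊔ B))
  rw [← subgroupOf_sup le_sup_left le_sup_right, relIndex_subgroupOf le_rfl, relIndex_subgroupOf le_sup_left,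
    ← inf_relIndex_right B A, inf_comm, h.inf_eq] at h3
  have h4 := card_mul_relIndex h.UA
  rw [← card_mul_relIndex (le_sup_right : B ≤ A ⊔ B), h3, h.elB.card]
  rw [h.elA.card, h.elU.card] at h4
  omega

theorem sq_R (h : LS S A B U) (hg : g ∈ A ⊔ B) : g * g ∈ U := by
  obtain ⟨x, hx, y, hy, rfl⟩ := h.mem_R.1 hg
  simpa [commutatorElement_def, mul_assoc, inv_of_sq (h.elA.sq x hx), inv_of_sq (h.elB.sq y hy)] using h.comm x hx y hy

theorem comm_R (h : LS S A B U) (hg : g ∈ A ⊔ B) (hk : k ∈ A ⊔ B) : ⁅g, k⁆ ∈ U := by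
  have h1 : k⁻¹ * (g * g)⁻¹ * k ∈ U := by
    rw [h.RU (inv_mem hk) _ (inv_mem (h.sq_R hg)), inv_mul_cancel_right]
    exact inv_mem (h.sq_R hg)
  simpa [commutatorElement_def, mul_assoc] using mul_mem (mul_mem (h.sq_R (mul_mem hg hk)) h1) (inv_mem (h.sq_R hk))

theorem inv_R (h : LS S A B U) (hg : g ∈ A ⊔ B) (h2 : g * g = 1) : g ∈ A ∨ g ∈ B := by
  obtain ⟨x, hx, y, hy, rfl⟩ := h.mem_R.1 hg
  have h3 : x * y = y * x := by
    rw [← inv_of_sq h2, mul_inv_rev, inv_of_sq (h.elA.sq x hx), inv_of_sq (h.elB.sq y hy)]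
  exact (h.nd x hx y hy h3).symm.imp (fun e => mul_mem hx (h.UA e)) fun e => mul_mem (h.UB e) hy

theorem cent_R (h : LS S A B U) (hx : x ∈ A) (hU : x ∉ U) (hg : g ∈ A ⊔ B) (e : g * x = x * g) : g ∈ A := by
  obtain ⟨p, hp, q, hq, rfl⟩ := h.mem_R.1 hg
  refine mul_mem hp (h.UA ((h.nd x hx q hq ?_).resolve_left hU))
  rw [comm_assoc (comm_of_sq h.elA.sq hx hp), mul_assoc, mul_right_inj] at e
  exact e.symm

theorem elem_le (h : LS S A B U) (hE : E ≤ A ⊔ B) (h2 : ∀ x ∈ E, x * x = 1) : E ≤ A ∨ E ≤ B := by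
  by_contra! e
  obtain ⟨x, hx, x1⟩ := SetLike.not_le_iff_exists.1 e.1
  obtain ⟨y, hy, y1⟩ := SetLike.not_le_iff_exists.1 e.2
  exact (h.nd y ((h.inv_R (hE hy) (h2 y hy)).resolve_right y1) x ((h.inv_R (hE hx) (h2 x hx)).resolve_left x1)
    (comm_of_sq h2 hy hx)).elim (fun e => y1 (h.UB e)) fun e => x1 (h.UA e)

theorem e16_R (h : LS S A B U) (hE : E ≤ A ⊔ B) (h2 : El 16 E) : E = A ∨ E = B :=
  (h.elem_le hE h2.sq).imp (fun e => eq_of_le_of_card_ge e (by rw [h2.card, h.elA.card])) fun e =>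
    eq_of_le_of_card_ge e (by rw [h2.card, h.elB.card])

theorem ne (h : LS S A B U) : A ≠ B := fun e => by
  obtain ⟨p, hp, p1⟩ := h.exists_A
  exact p1 (h.inf hp (e ▸ hp))

theorem perm (h : LS S A B U) (hs : g ∈ normalizer ((A ⊔ B : Subgroup G) : Set G)) :
    (cj g A = A ∧ cj g B = B) ∨ (cj g A = B ∧ cj g B = A) := by
  have h1 := h.e16_R ((cj_mono le_sup_left).trans (cj_eq_iff.2 hs).le) (h.elA.cj g)
  have h2 := h.e16_R ((cj_mono le_sup_right).trans (cj_eq_iff.2 hs).le) (h.elB.cj g)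
  have h3 : cj g A ≠ cj g B := fun e => h.ne (cj_inj.1 e)
  rcases h1 with e | e <;> rcases h2 with e' | e'
  exacts [absurd (e.trans e'.symm) h3, Or.inl ⟨e, e'⟩, Or.inr ⟨e, e'⟩, absurd (e.trans e'.symm) h3]

theorem normU (h : LS S A B U) (hs : g ∈ normalizer ((A ⊔ B : Subgroup G) : Set G)) : g ∈ normalizer (U : Set G) := by
  rw [← cj_eq_iff, ← h.inf_eq, cj_inf]
  rcases h.perm hs with e | e <;> rw [e.1, e.2]
  exact inf_comm ..

theorem cm_left (h : LS S A B U) (ha : a ∈ A ⊔ B) (hp : p ∈ A ⊔ B) (hb : b ∈ A ⊔ B) : ⁅a * p, b⁆ = ⁅p, b⁆ * ⁅a, b⁆ := by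
  rw [← conj_eq_of_comm (h.RU ha _ (h.comm_R hp hb))]
  simp only [commutatorElement_def]; group

theorem cm_right (h : LS S A B U) (ha : a ∈ A ⊔ B) (hb : b ∈ A ⊔ B) (hq : q ∈ A ⊔ B) : ⁅a, b * q⁆ = ⁅a, b⁆ * ⁅a, q⁆ := by
  rw [← conj_eq_of_comm (h.RU hb _ (h.comm_R ha hq))]
  simp only [commutatorElement_def]; group

/-- The commutator only depends on the cosets of `U`. -/
theorem cm_fix (h : LS S A B U) (ha : a ∈ A ⊔ B) (hb : b ∈ A ⊔ B) (h1 : ⁅y, a⁆ ∈ U) :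
    y * ⁅a, b⁆ * y⁻¹ = ⁅a, y * b * y⁻¹⁆ ∨ y * b * y⁻¹ ∉ A ⊔ B := by
  by_cases hb' : y * b * y⁻¹ ∈ A ⊔ B
  · left
    have e : y * ⁅a, b⁆ * y⁻¹ = ⁅⁅y, a⁆ * a, y * b * y⁻¹⁆ := by simp only [commutatorElement_def]; group
    rw [e, h.cm_left (h.U_le h1) ha hb', commutatorElement_eq_one_iff_mul_comm.2 (h.RU hb' _ h1).symm, mul_one]
  · exact Or.inr hb'

theorem cm_fix2 (h : LS S A B U) (ha : a ∈ A ⊔ B) (hb : b ∈ A ⊔ B) (h1 : ⁅y, a⁆ ∈ U) (h2 : ⁅y, b⁆ ∈ U) :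
    y * ⁅a, b⁆ = ⁅a, b⁆ * y := by
  have e : y * b * y⁻¹ = ⁅y, b⁆ * b := by simp only [commutatorElement_def]; group
  refine comm_of_conj_eq ?_
  rw [(h.cm_fix ha hb h1).resolve_right (not_not.2 (e ▸ mul_mem (h.U_le h2) hb)), e, h.cm_right ha (h.U_le h2) hb,
    commutatorElement_eq_one_iff_mul_comm.2 (h.RU ha _ h2), one_mul]

/-- An element that fixes two independent cosets in `A / U` and one in `B / U` centralises `U`. -/
theorem cz_of_fix (h : LS S A B U) (ha : a ∈ A) (hp : p ∈ A) (a1 : a ∉ U) (p1 : p ∉ U) (ap : a * p ∉ U) (hb : b ∈ B)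
    (b1 : b ∉ U) (h1 : ⁅y, a⁆ ∈ U) (h2 : ⁅y, p⁆ ∈ U) (h3 : ⁅y, b⁆ ∈ U) : Cz y U := by
  have n : ∀ x ∈ A, x ∉ U → ⁅x, b⁆ ≠ 1 := fun x hx x1 e =>
    (h.nd x hx b hb (commutatorElement_eq_one_iff_mul_comm.1 e)).elim x1 b1
  refine cz_of_two h.elU (h.comm p hp b hb) (h.comm a ha b hb) (n p hp p1) (n a ha a1) ?_
    (h.cm_fix2 (mem_sup_left hp) (mem_sup_right hb) h2 h3) (h.cm_fix2 (mem_sup_left ha) (mem_sup_right hb) h1 h3)
  rw [← h.cm_left (mem_sup_left ha) (mem_sup_left hp) (mem_sup_right hb)]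
  exact n _ (mul_mem ha hp) ap

/-- An element of `S` centralising `R / U` lies in `R`. -/
theorem mem_of_comm (h : LS S A B U) (hy : y ∈ S) (hA : ∀ x ∈ A, ⁅y, x⁆ ∈ U) (hB : ∀ x ∈ B, ⁅y, x⁆ ∈ U) :
    y ∈ A ⊔ B := by
  obtain ⟨a, ha, p, hp, a1, p1, ap⟩ := h.two_A
  obtain ⟨q, hq, q1⟩ := h.symm.exists_A
  have key : ∀ y : G, Cz y U → ∀ x : G, ⁅y, x⁆ ∈ U → y * y * x = x * (y * y) := fun y hy x e => by
    have h6 : y * x * y⁻¹ = ⁅y, x⁆ * x := by simp only [commutatorElement_def]; group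
    refine comm_of_conj_eq ?_
    rw [← conj_conj, h6, conj_mul', conj_eq_of_comm (hy _ e), h6, ← mul_assoc, h.elU.sq _ e, one_mul]
  revert hA hB
  refine ind2 h.p (P := fun y => (∀ x ∈ A, ⁅y, x⁆ ∈ U) → (∀ x ∈ B, ⁅y, x⁆ ∈ U) → y ∈ A ⊔ B)
    (fun _ _ => one_mem _) (fun y hy ih hA hB => ?_) y hy
  have hz := h.cz_of_fix ha hp a1 p1 ap hq q1 (hA a ha) (hA p hp) (hB q hq)
  have h1 := ih (fun x hx => by rw [commutatorElement_eq_one_iff_mul_comm.2 (key y hz x (hA x hx))]; exact one_mem _)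
    fun x hx => by rw [commutatorElement_eq_one_iff_mul_comm.2 (key y hz x (hB x hx))]; exact one_mem _
  refine h.r4.five h.R_le h.U_le (fun _ => h.sq_R) (by rw [h.card_R, h.elU.card]) hy
    (h.inf (h.cent_R hp p1 h1 (key y hz p (hA p hp))) (h.symm.cent_R hq q1 (sup_comm A B ▸ h1) (key y hz q (hB q hq))))
    fun g hg => ?_
  obtain ⟨x, hx, w, hw, rfl⟩ := h.mem_R.1 hg
  have e : ⁅y, x * w⁆ = ⁅y, x⁆ * (x * ⁅y, w⁆ * x⁻¹) := by simp only [commutatorElement_def]; group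
  rw [e, conj_eq_of_comm (h.RU (mem_sup_left hx) _ (hB w hw))]
  exact mul_mem (hA x hx) (hB w hw)

theorem transfer_comm (h : LS S A B U) (hy : Cz y U) (hB : y ∈ normalizer (B : Set G)) (hp : p ∈ A) (p1 : p ∉ U)
    (e : ⁅y, p⁆ ∈ U) : ∀ x ∈ B, ⁅y, x⁆ ∈ U := fun x hx => by
  have h1 := (conj_mem_norm hB).2 hx
  have h2 : ⁅y, x⁆ ∈ B := mul_mem h1 (inv_mem hx)
  refine (h.nd p hp _ h2 (commutatorElement_eq_one_iff_mul_comm.1 ?_)).resolve_left p1
  have h3 := (h.cm_fix (mem_sup_left hp) (mem_sup_right hx) e).resolve_right (not_not.2 (mem_sup_right h1))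
  have h4 : y * x * y⁻¹ = ⁅y, x⁆ * x := by simp only [commutatorElement_def]; group
  rw [conj_eq_of_comm (hy _ (h.comm p hp x hx)), h4,
    h.cm_right (mem_sup_left hp) (mem_sup_right h2) (mem_sup_right hx)] at h3
  exact mul_eq_right.1 h3.symm

theorem exists_fix (h : LS S A B U) (hy : y ∈ S) (hA : y ∈ normalizer (A : Set G)) (hB : y ∈ normalizer (B : Set G)) :
    ∃ p ∈ A, p ∉ U ∧ ⁅y, p⁆ ∈ U := by
  obtain ⟨p0, hp0, p01⟩ := h.exists_A
  have hS : A ⊔ zpowers y ≤ S := sup_le h.leA (zpowers_le.2 hy)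
  have hU : A ⊔ zpowers y ≤ normalizer (U : Set G) := sup_le (fun a ha => h.normU (le_normalizer (mem_sup_left ha)))
    (zpowers_le.2 (by rw [← cj_eq_iff, ← h.inf_eq, cj_inf, cj_eq_iff.2 hA, cj_eq_iff.2 hB]))
  obtain ⟨p, hp, p1, -, e⟩ := exists_central_mod (h.p.to_le hS) hU le_sup_left
    (sup_le le_normalizer (zpowers_le.2 hA)) fun e => p01 (e hp0)
  exact ⟨p, hp, p1, e y (mem_sup_right (mem_zpowers y))⟩

/-- An element of `S` normalising `A`, `B` and centralising `U` lies in `R`. -/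
theorem mem_of_norm (h : LS S A B U) (hy : y ∈ S) (hU : Cz y U) (hA : y ∈ normalizer (A : Set G))
    (hB : y ∈ normalizer (B : Set G)) : y ∈ A ⊔ B := by
  obtain ⟨p, hp, p1, e⟩ := h.exists_fix hy hA hB
  have h1 := h.transfer_comm hU hB hp p1 e
  obtain ⟨q, hq, q1⟩ := h.symm.exists_A
  exact h.mem_of_comm hy (h.symm.transfer_comm hU hA hq q1 (h1 q hq)) h1

theorem swap_of (h : LS S A B U) (hy : y ∈ S) (hn : y ∈ normalizer ((A ⊔ B : Subgroup G) : Set G)) (hU : Cz y U)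
    (e : y ∉ A ⊔ B) : cj y A = B ∧ cj y B = A :=
  (h.perm hn).resolve_left fun k => e (h.mem_of_norm hy hU (cj_eq_iff.1 k.1) (cj_eq_iff.1 k.2))

/-- An elementary subgroup of `R` normalised by a swap lies in `U`. -/
theorem le_U_of_swap (h : LS S A B U) (hs : cj y A = B ∧ cj y B = A) (hE : E ≤ A ⊔ B) (h2 : ∀ x ∈ E, x * x = 1)
    (hn : ∀ x ∈ E, y * x * y⁻¹ ∈ E) : E ≤ U := by
  have h3 : cj y E = E := cj_eq_of_le (cj_le_iff.2 hn)
  rw [← h.inf_eq]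
  rcases h.elem_le hE h2 with k | k
  · exact le_inf k (h3 ▸ hs.1 ▸ cj_mono k)
  · exact le_inf (h3 ▸ hs.2 ▸ cj_mono k) k

theorem cz_of_eight (h : LS S A B U) (hy : y ∈ S) (hA : y ∈ normalizer (A : Set G)) (hB : y ∈ normalizer (B : Set G))
    (hK : K ≤ A) (hc : Nat.card K = 8) (hz : Cz y K) : Cz y U := by
  by_cases e : U ≤ K
  · exact fun v hv => hz v (e hv)
  have h1 : Nat.card (K ⊓ U : Subgroup G) < 4 :=
    h.elU.card ▸ card_lt_of_lt (lt_of_le_of_ne inf_le_right fun e' => e (e' ▸ inf_le_left))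
  obtain ⟨a, ha, p, hp, a1, p1, ap⟩ := exists_two (E := K) (U := U) (fun x hx => h.elA.sq x (hK hx)) (by omega)
  obtain ⟨b, hb, b1, e⟩ := h.symm.exists_fix hy hB hA
  have k : ∀ x ∈ K, ⁅y, x⁆ ∈ U := fun x hx => by
    rw [commutatorElement_eq_one_iff_mul_comm.2 (hz x hx)]; exact one_mem _
  exact h.cz_of_fix (hK ha) (hK hp) a1 p1 ap hb b1 (k a ha) (k p hp) e

theorem e16_aux (h : LS S A B U) (hn : S ≤ normalizer ((A ⊔ B : Subgroup G) : Set G)) (hE : E ≤ S) (h2 : El 16 E) :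
    E ≤ A ⊔ B := by
  have hU : S ≤ normalizer (U : Set G) := fun s hs => h.normU (hn hs)
  have cm := fun {x y : G} (hx : x ∈ E) (hy : y ∈ E) => comm_of_sq h2.sq hx hy
  -- a subgroup of `E` centralising `U` and not inside `R`
  have key : ∀ K ≤ E, (∀ x ∈ K, Cz x U) → ∀ y ∈ K, y ∉ A ⊔ B →
      K ⊓ (A ⊔ B) ≤ U ∧ Nat.card K = 2 * Nat.card (K ⊓ (A ⊔ B) : Subgroup G) := fun K hK hz y hy y1 => by
    have h3 := h.swap_of (hE (hK hy)) (hn (hE (hK hy))) (hz y hy) y1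
    refine ⟨h.le_U_of_swap h3 inf_le_right (fun x hx => h2.sq x (hK hx.1)) fun x hx => by
      rwa [conj_eq_of_comm (cm (hK hy) (hK hx.1))], Ix.card (s := y) (fun x hx => ?_) inf_le_left hy fun e => y1 e.2⟩
    by_cases k : x ∈ A ⊔ B
    · exact Or.inl ⟨hx, k⟩
    · have h4 := h.swap_of (hE (hK hx)) (hn (hE (hK hx))) (hz x hx) k
      refine Or.inr ⟨mul_mem hy hx, h.mem_of_norm (hE (hK (mul_mem hy hx))) (hz _ (mul_mem hy hx)) (cj_eq_iff.1 ?_)
        (cj_eq_iff.1 ?_)⟩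
      · rw [← cj_cj, h4.1, h3.2]
      · rw [← cj_cj, h4.2, h3.1]
  by_cases hz : ∀ x ∈ E, Cz x U
  · intro y hy
    by_contra y1
    obtain ⟨k1, k2⟩ := key E le_rfl hz y hy y1
    have := card_le_of_le k1
    rw [h2.card] at k2
    rw [h.elU.card] at this
    omega
  exfalso
  push Not at hz
  obtain ⟨φ, hφ, φ1⟩ := hz
  have mz : ∀ x, x ∈ centralizer (U : Set G) ↔ Cz x U := fun x => by
    rw [mem_centralizer_iff]; exact forall₂_congr fun _ _ => eq_comm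
  have h3 : Nat.card E = 2 * Nat.card (E ⊓ centralizer (U : Set G) : Subgroup G) :=
    Ix.card (s := φ) (fun x hx => by
      by_cases k : Cz x U
      · exact Or.inl ⟨hx, (mz x).2 k⟩
      · exact Or.inr ⟨mul_mem hφ hx, (mz _).2 (cz_mul h.p h.elU (h.U_le.trans h.R_le) hU (hE hφ) (hE hx) φ1 k)⟩)
      inf_le_left hφ fun e => φ1 ((mz φ).1 e.2)
  rw [h2.card] at h3
  set K := E ⊓ centralizer (U : Set G)
  have hK : K ≤ E := inf_le_left
  by_cases k : K ≤ A ⊔ B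
  · rcases h.perm (hn (hE hφ)) with e | e
    · have k1 : Cz φ K := fun x hx => cm hφ (hK hx)
      rcases h.elem_le k fun x hx => h2.sq x (hK hx) with k2 | k2
      · exact φ1 (h.cz_of_eight (hE hφ) (cj_eq_iff.1 e.1) (cj_eq_iff.1 e.2) k2 (by omega) k1)
      · exact φ1 (h.symm.cz_of_eight (hE hφ) (cj_eq_iff.1 e.2) (cj_eq_iff.1 e.1) k2 (by omega) k1)
    · have := card_le_of_le (h.le_U_of_swap e k (fun x hx => h2.sq x (hK hx)) fun x hx => by
        rwa [conj_eq_of_comm (cm hφ (hK hx))])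
      rw [h.elU.card] at this
      omega
  · obtain ⟨y, hy, y1⟩ := SetLike.not_le_iff_exists.1 k
    obtain ⟨k1, k2⟩ := key K hK (fun x hx => (mz x).1 hx.2) y hy y1
    have k3 := eq_of_le_of_card_ge k1 (by rw [h.elU.card]; omega)
    exact φ1 fun v hv => cm hφ (hK (k3.ge hv).1)

/-- `R` is normal in `S`. -/
theorem normR (h : LS S A B U) : S ≤ normalizer ((A ⊔ B : Subgroup G) : Set G) := by
  have : Fact (Nat.Prime 2) := ⟨Nat.prime_two⟩
  by_contra e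
  set N := S ⊓ normalizer ((A ⊔ B : Subgroup G) : Set G)
  have h1 : N < S := lt_of_le_of_ne inf_le_left fun e' => e (e' ▸ inf_le_right)
  obtain ⟨s, ⟨h2, h3⟩, h4⟩ := SetLike.exists_of_lt (lt_inf_normalizer h.p h1)
  have h5 : A ⊔ B ≤ N := le_inf h.R_le le_normalizer
  have h6 : LS N A B U := ⟨⟨le_sup_left.trans h5, le_sup_right.trans h5, h.elA, h.elB, h.elU, h.UA, h.UB, h.comm, h.nd⟩,
    h.p.to_inf_left, h.r4.mono inf_le_left⟩
  have key : ∀ E ≤ A ⊔ B, El 16 E → cj s E ≤ A ⊔ B := fun E k1 k2 =>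
    h6.e16_aux inf_le_right ((cj_mono (k1.trans h5)).trans (cj_eq_iff.2 h3).le) (k2.cj s)
  refine h4 ⟨h2, cj_eq_iff.1 (cj_eq_of_le ?_)⟩
  rw [cj_sup]
  exact sup_le (key A le_sup_left h.elA) (key B le_sup_right h.elB)

theorem S_normU (h : LS S A B U) : S ≤ normalizer (U : Set G) := fun _ hs => h.normU (h.normR hs)

/-- With a swap there is no normal elementary abelian subgroup of order eight. -/
theorem no8 (h : LS S A B U) (hy : y ∈ S) (hs : cj y A = B ∧ cj y B = A) (hE : E ≤ S)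
    (hn : S ≤ normalizer (E : Set G)) (h2 : ∀ x ∈ E, x * x = 1) : Nat.card E ≤ 4 := by
  have h3 : E ⊓ (A ⊔ B) ≤ U := h.le_U_of_swap hs inf_le_right (fun x hx => h2 x hx.1) fun x hx =>
    ⟨(conj_mem_norm (hn hy)).2 hx.1, (conj_mem_norm (h.normR hy)).2 hx.2⟩
  have h4 : ∀ e ∈ E, ∀ x ∈ A ⊔ B, ⁅e, x⁆ ∈ U := fun e he x hx => h3 (mem_inf.2 ⟨by
    simpa [commutatorElement_def, mul_assoc] using mul_mem he ((conj_mem_norm (hn (h.R_le hx))).2 (inv_mem he)),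
    mul_mem ((conj_mem_norm (h.normR (hE he))).2 hx) (inv_mem hx)⟩)
  rw [← h.elU.card]
  exact card_le_of_le fun e he => h3 ⟨he, h.mem_of_comm (hE he) (fun x hx => h4 e he x (mem_sup_left hx))
    fun x hx => h4 e he x (mem_sup_right hx)⟩

end LS

end Cfsg.Agent.GH.UL
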